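import Cfsg.Agent.H351.HalfTransOdd

set_option autoImplicit false
set_option linter.style.haveILetI false

/-!
# Half-transitive linear `2`-groups with a noncyclic normal abelian subgroup: two blocks
-/

namespace Cfsg.Agent.H351.HT

variable {q : ℕ} {V : Type*} [AddCommGroup V] [Module (ZMod q) V]
  {G : Type*} [Group G] {ρ : G →* (V ≃ₗ[ZMod q] V)} {z b : G}

theorem Conf.z_neg (h : Conf 2 z b) (hirr : Irred ρ) (hρ : Function.Injective ρ) (v : V) :
    ρ z v = - v := by
  have h1 : ρ z (v + ρ z v) = v + ρ z v := by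
    have h2 : z * z = 1 := by rw [← pow_two, ← h.zo, pow_orderOf_eq_one]
    rw [map_add, ← LinearEquiv.mul_apply, ← map_mul, h2, map_one, add_comm]
    rfl
  have h3 := fix_central ρ hirr hρ h.zc (by
    intro h4; have := h.zo; rw [h4, orderOf_one] at this; omega) h1
  exact (neg_eq_of_add_eq_zero_right h3).symm

theorem Conf.b_invol (h : Conf 2 z b) (v : V) : ρ b (ρ b v) = v := by
  rw [← LinearEquiv.mul_apply, ← map_mul, ← pow_two, h.bp, map_one]; rfl

theorem Conf.conj_cases (h : Conf 2 z b) (g : G) : g * b = b * g ∨ g * b = b * z * g := by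
  obtain ⟨c, hc⟩ := h.conj g
  rcases Int.even_or_odd' c with ⟨k, rfl | rfl⟩
  · left
    have h1 : z ^ (2 * k) = 1 := h.zpow_eq_one (by simp)
    rw [h1, mul_one] at hc
    exact mul_inv_eq_iff_eq_mul.1 hc
  · right
    have h1 : z ^ (2 * k) = 1 := h.zpow_eq_one (by simp)
    rw [zpow_add, h1, one_mul, zpow_one] at hc
    exact mul_inv_eq_iff_eq_mul.1 hc

/-- commuting elements preserve the `±1` eigenspaces of `b` -/
theorem Conf.comm_pres (g : G) (hg : g * b = b * g) (v : V) : ρ b (ρ g v) = ρ g (ρ b v) := by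
  rw [← LinearEquiv.mul_apply, ← map_mul, ← hg, map_mul]; rfl

theorem Conf.swap_pres (h : Conf 2 z b) (hirr : Irred ρ) (hρ : Function.Injective ρ) (g : G)
    (hg : g * b = b * z * g) (v : V) : ρ b (ρ g v) = - ρ g (ρ b v) := by
  have h1 : ρ b (ρ z (ρ g v)) = ρ g (ρ b v) := by
    rw [← LinearEquiv.mul_apply, ← LinearEquiv.mul_apply, ← map_mul, ← map_mul, ← hg, map_mul]; rfl
  rw [h.z_neg hirr hρ, map_neg] at h1
  rw [← h1, neg_neg]

theorem eq_zero_of_eq_neg (h2 : (2 : ZMod q) ≠ 0) [Fact q.Prime] {v : V} (h : v = -v) : v = 0 := by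
  have h1 : (2 : ZMod q) • v = 0 := by
    rw [two_smul]
    nth_rewrite 1 [h]
    exact neg_add_cancel v
  exact (smul_eq_zero.1 h1).resolve_left h2

theorem Conf.swap_self (h : Conf 2 z b) : Conf 2 z (b * z) where
  zc := h.zc
  zo := h.zo
  bp := by
    have h1 : Commute b z := h.zc b
    have h2 : z ^ 2 = 1 := by rw [← h.zo, pow_orderOf_eq_one]
    rw [h1.mul_pow, h.bp, h2, one_mul]
  bz := by
    intro h1
    apply h.bz
    have := Subgroup.mul_mem _ h1 (Subgroup.inv_mem _ (Subgroup.mem_zpowers z))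
    rwa [mul_inv_cancel_right] at this
  conj := by
    intro g
    obtain ⟨i, hi⟩ := h.conj g
    refine ⟨i, ?_⟩
    have h1 : g * (b * z) * g⁻¹ = (g * b * g⁻¹) * (g * z * g⁻¹) := by group
    rw [h1, hi, h.zc g, mul_inv_cancel_right]
    have h2 : z ^ i * z = z * z ^ i := by rw [← zpow_add_one, ← zpow_one_add, add_comm]
    rw [mul_assoc, h2, mul_assoc]

theorem Conf.bz_neg (h : Conf 2 z b) (hirr : Irred ρ) (hρ : Function.Injective ρ) (v : V) :
    ρ (b * z) v = - ρ b v := by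
  rw [map_mul, LinearEquiv.mul_apply, h.z_neg hirr hρ, map_neg]

/-- the fixed space of `b` is irreducible under the centraliser of `b` -/
theorem Conf.irred_block (h : Conf 2 z b) (hirr : Irred ρ) (hρ : Function.Injective ρ)
    (h2 : (2 : ZMod q) ≠ 0) [Fact q.Prime]
    {g₀ : G} (hg₀ : g₀ * b = b * z * g₀) (U : Submodule (ZMod q) V) (hUb : ∀ u ∈ U, ρ b u = u)
    (hU : ∀ g : G, g * b = b * g → ∀ u ∈ U, ρ g u ∈ U) (hU0 : U ≠ ⊥) (v : V) (hv : ρ b v = v) :
    v ∈ U := by
  have hmul : ∀ g k : G, g * b = b * z * g → k * b = b * z * k → (g * k) * b = b * (g * k) := by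
    intro g k hg hk
    have h3 : z * z = 1 := by rw [← pow_two, ← h.zo, pow_orderOf_eq_one]
    calc g * k * b = g * (k * b) := by group
      _ = g * b * z * k := by rw [hk]; group
      _ = b * z * (g * z) * k := by rw [hg]; group
      _ = b * (z * z) * g * k := by rw [h.zc g]; group
      _ = b * (g * k) := by rw [h3]; group
  have hinv : g₀⁻¹ * b = b * z * g₀⁻¹ := by
    have h3 : z * z = 1 := by rw [← pow_two, ← h.zo, pow_orderOf_eq_one]
    have h4 : b * g₀⁻¹ = g₀⁻¹ * (b * z) := by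
      have : g₀ * b * g₀⁻¹ = b * z := by rw [hg₀]; group
      rw [← this]; group
    calc g₀⁻¹ * b = g₀⁻¹ * b * (z * z) := by rw [h3, mul_one]
      _ = (g₀⁻¹ * (b * z)) * z := by group
      _ = b * (g₀⁻¹ * z) := by rw [← h4]; group
      _ = b * z * g₀⁻¹ := by rw [h.zc]; group
  have hmul' : ∀ g k : G, g * b = b * g → k * b = b * z * k → (g * k) * b = b * z * (g * k) := by
    intro g k hg hk
    calc g * k * b = g * (k * b) := by group
      _ = g * b * z * k := by rw [hk]; group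
      _ = b * (g * z) * k := by rw [hg]; group
      _ = b * z * (g * k) := by rw [h.zc g]; group
  let W : Submodule (ZMod q) V := U ⊔ U.map (ρ g₀).toLinearMap
  have hWinv : ∀ g : G, ∀ w ∈ W, ρ g w ∈ W := by
    intro g w hw
    obtain ⟨u, hu, _, ⟨u', hu', rfl⟩, rfl⟩ := Submodule.mem_sup.1 hw
    rw [map_add]
    show ρ g u + ρ g (ρ g₀ u') ∈ W
    rcases h.conj_cases g with hg | hg
    · refine Submodule.add_mem _ (Submodule.mem_sup_left (hU g hg u hu)) (Submodule.mem_sup_right ?_)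
      refine ⟨ρ (g₀⁻¹ * (g * g₀)) u', hU _ (hmul _ _ hinv (hmul' _ _ hg hg₀)) u' hu', ?_⟩
      show ρ g₀ (ρ (g₀⁻¹ * (g * g₀)) u') = ρ g (ρ g₀ u')
      rw [map_mul, LinearEquiv.mul_apply, self_apply_inv, map_mul, LinearEquiv.mul_apply]
    · refine Submodule.add_mem _ (Submodule.mem_sup_right ?_) (Submodule.mem_sup_left ?_)
      · refine ⟨ρ (g₀⁻¹ * g) u, hU _ (hmul _ _ hinv hg) u hu, ?_⟩
        show ρ g₀ (ρ (g₀⁻¹ * g) u) = ρ g u
        rw [map_mul, LinearEquiv.mul_apply, self_apply_inv]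
      · rw [← LinearEquiv.mul_apply, ← map_mul]
        exact hU _ (hmul _ _ hg hg₀) u' hu'
  rcases hirr W hWinv with h3 | h3
  · exfalso
    apply hU0
    rw [eq_bot_iff, ← h3]
    exact le_sup_left
  · have hvW : v ∈ W := by rw [h3]; trivial
    obtain ⟨u, hu, _, ⟨u', hu', rfl⟩, h4⟩ := Submodule.mem_sup.1 hvW
    change u + ρ g₀ u' = v at h4
    have h5 : ρ b (ρ g₀ u') = - ρ g₀ u' := by
      rw [h.swap_pres hirr hρ g₀ hg₀, hUb u' hu']
    have h6 : ρ b (ρ g₀ u') = ρ g₀ u' := by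
      have : ρ g₀ u' = v - u := by rw [← h4]; abel
      rw [this, map_sub, hv, hUb u hu]
    have h7 : ρ g₀ u' = 0 := eq_zero_of_eq_neg h2 (by rw [← h5, h6])
    rw [h7, add_zero] at h4
    rw [← h4]; exact hu

/-- stabiliser of a sum of block vectors in different orbits -/
theorem Conf.stab_two (h : Conf 2 z b) (hirr : Irred ρ) (hρ : Function.Injective ρ)
    (h2 : (2 : ZMod q) ≠ 0) [Fact q.Prime] [Finite G]
    (hc : ∀ v w : V, v ≠ 0 → w ≠ 0 → Nat.card (stab ρ v) = Nat.card (stab ρ w))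
    {v w : V} (hv : ρ b v = v) (hw : ρ b w = -w) (hv0 : v ≠ 0) (hw0 : w ≠ 0)
    (hvw : ∀ g : G, ρ g v ≠ w) : stab ρ v = stab ρ w := by
  have hle : stab ρ (v + w) ≤ stab ρ v ⊓ stab ρ w := by
    intro g hg
    rw [mem_stab] at hg
    have hg' : ρ g v + ρ g w = v + w := by rw [← map_add, hg]
    have hb := congrArg (ρ b) hg'
    rw [map_add, map_add, hv, hw] at hb
    rcases h.conj_cases g with hgb | hgb
    · rw [Conf.comm_pres g hgb, Conf.comm_pres g hgb, hv, hw, map_neg] at hb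
      have h4 : (2 : ZMod q) • ρ g v = (2 : ZMod q) • v := by
        rw [two_smul, two_smul]
        have e1 : ρ g v + ρ g v = (ρ g v + ρ g w) + (ρ g v + -ρ g w) := by abel
        rw [e1, hg', hb]; abel
      have h5 : ρ g v = v := smul_right_injective V h2 h4
      refine ⟨h5, ?_⟩
      rw [h5] at hg'
      exact add_left_cancel hg'
    · exfalso
      rw [h.swap_pres hirr hρ g hgb, h.swap_pres hirr hρ g hgb, hv, hw, map_neg, neg_neg] at hb
      have h4 : (2 : ZMod q) • ρ g v = (2 : ZMod q) • w := by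
        rw [two_smul, two_smul]
        have e1 : ρ g v + ρ g v = (ρ g v + ρ g w) - (-ρ g v + ρ g w) := by abel
        rw [e1, hg', hb]; abel
      exact hvw g (smul_right_injective V h2 h4)
  have hne : v + w ≠ 0 := by
    intro h1
    have h3 : v = -w := eq_neg_of_add_eq_zero_left h1
    have h4 : ρ b v = - ρ b w := by rw [h3, map_neg]
    rw [hv, hw, neg_neg] at h4
    apply hv0
    apply eq_zero_of_eq_neg h2
    nth_rewrite 1 [h3]
    rw [h4]
  rw [← stab_eq_of_le ρ hc hne hv0 (hle.trans inf_le_left),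
    ← stab_eq_of_le ρ hc hne hw0 (hle.trans inf_le_right)]

/-- the vectors in a block on whose orbit `D` acts trivially -/
theorem Conf.fix_block (h : Conf 2 z b) (hirr : Irred ρ) (hρ : Function.Injective ρ)
    (h2 : (2 : ZMod q) ≠ 0) [Fact q.Prime]
    {g₀ : G} (hg₀ : g₀ * b = b * z * g₀) (D : Subgroup G) {u : V} (hu : ρ b u = u) (hu0 : u ≠ 0)
    (hD : ∀ g : G, g * b = b * g → ∀ d ∈ D, ρ d (ρ g u) = ρ g u) {v : V} (hv : ρ b v = v) :
    ∀ d ∈ D, ρ d v = v := by
  let U : Submodule (ZMod q) V :=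
    { carrier := {v | ρ b v = v ∧ ∀ g : G, g * b = b * g → ∀ d ∈ D, ρ d (ρ g v) = ρ g v}
      add_mem' := by
        rintro x y ⟨hx, hx'⟩ ⟨hy, hy'⟩
        refine ⟨by rw [map_add, hx, hy], fun g hg d hd => ?_⟩
        rw [map_add, map_add, hx' g hg d hd, hy' g hg d hd]
      zero_mem' := ⟨by rw [map_zero], fun g _ d _ => by rw [map_zero, map_zero]⟩
      smul_mem' := by
        rintro r x ⟨hx, hx'⟩
        refine ⟨by rw [map_smul, hx], fun g hg d hd => ?_⟩
        rw [map_smul, map_smul, hx' g hg d hd] }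
  have hmem : ∀ v, v ∈ U ↔ ρ b v = v ∧ ∀ g : G, g * b = b * g → ∀ d ∈ D, ρ d (ρ g v) = ρ g v :=
    fun v => Iff.rfl
  have hU0 : U ≠ ⊥ := by
    intro h1
    apply hu0
    have : u ∈ U := ⟨hu, hD⟩
    rw [h1] at this
    exact (Submodule.mem_bot _).1 this
  have h3 := h.irred_block hirr hρ h2 hg₀ U (fun u hu => hu.1) (by
    intro g hg u hu
    rw [hmem] at hu ⊢
    refine ⟨by rw [Conf.comm_pres g hg, hu.1], fun k hk d hd => ?_⟩
    rw [← LinearEquiv.mul_apply (ρ k), ← map_mul]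
    refine hu.2 (k * g) ?_ d hd
    rw [mul_assoc, hg, ← mul_assoc, hk, mul_assoc]) hU0 v hv
  intro d hd
  have := h3.2 1 (by simp) d hd
  simpa using this

/-- Either the group is semiregular or the centraliser of `b` is transitive on each block. -/
theorem Conf.trans_or_semireg (h : Conf 2 z b) (hirr : Irred ρ) (hρ : Function.Injective ρ)
    (h2 : (2 : ZMod q) ≠ 0) [Fact q.Prime] [Finite G] {g₀ : G} (hg₀ : g₀ * b = b * z * g₀)
    (hc : ∀ v w : V, v ≠ 0 → w ≠ 0 → Nat.card (stab ρ v) = Nat.card (stab ρ w))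
    {u u' : V} (hu : ρ b u = u) (hu' : ρ b u' = u') (hu0 : u ≠ 0) (hu0' : u' ≠ 0)
    (huu : ∀ g : G, ρ g u ≠ u') :
    ∀ w : V, w ≠ 0 → ∀ g : G, ρ g w = w → g = 1 := by
  set w := ρ g₀ u' with hw
  have hwb : ρ b w = - w := by rw [hw, h.swap_pres hirr hρ g₀ hg₀, hu']
  have hw0 : w ≠ 0 := fun h1 => hu0' ((ρ g₀).map_eq_zero_iff.1 h1)
  have huw : ∀ g : G, ρ g u ≠ w := by
    intro g hg
    apply huu (g₀⁻¹ * g)
    rw [map_mul, LinearEquiv.mul_apply, hg, hw, inv_apply_self]
  have hstab : stab ρ u = stab ρ w := h.stab_two hirr hρ h2 hc hu hwb hu0 hw0 huw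
  have h1 : ∀ g : G, g * b = b * g → stab ρ (ρ g u) = stab ρ w := by
    intro g hg
    apply h.stab_two hirr hρ h2 hc (by rw [Conf.comm_pres g hg, hu]) hwb
      (fun h1 => hu0 ((ρ g).map_eq_zero_iff.1 h1)) hw0
    intro k hk
    apply huw (k * g)
    rw [map_mul, LinearEquiv.mul_apply, hk]
  have h3 : ∀ g : G, g * b = b * g → stab ρ u = stab ρ (ρ g w) := by
    intro g hg
    apply h.stab_two hirr hρ h2 hc hu (by rw [Conf.comm_pres g hg, hwb, map_neg]) hu0
      (fun h1 => hw0 ((ρ g).map_eq_zero_iff.1 h1))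
    intro k hk
    apply huw (g⁻¹ * k)
    rw [map_mul, LinearEquiv.mul_apply, hk, inv_apply_self]
  have hfix1 : ∀ v : V, ρ b v = v → ∀ d ∈ stab ρ u, ρ d v = v := by
    intro v hv
    apply h.fix_block hirr hρ h2 hg₀ (stab ρ u) hu hu0 _ hv
    intro g hg d hd
    have : d ∈ stab ρ (ρ g u) := by rw [h1 g hg, ← hstab]; exact hd
    exact this
  have hfix2 : ∀ v : V, ρ b v = -v → ∀ d ∈ stab ρ u, ρ d v = v := by
    intro v hv
    have hgb : ∀ g : G, g * (b * z) = b * z * g ↔ g * b = b * g := by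
      intro g
      rw [← mul_assoc, mul_assoc b z g, ← h.zc g, ← mul_assoc]
      exact mul_left_inj z
    refine h.swap_self.fix_block hirr hρ h2 (g₀ := g₀) ?_ (stab ρ u) (u := w) ?_ hw0 ?_ ?_
    · have h4 := hg₀
      calc g₀ * (b * z) = g₀ * b * z := by group
        _ = b * z * (g₀ * z) := by rw [hg₀]; group
        _ = b * z * z * g₀ := by rw [h.zc g₀]; group
    · rw [h.bz_neg hirr hρ, hwb, neg_neg]
    · intro g hg d hd
      have : d ∈ stab ρ (ρ g w) := by rw [← h3 g ((hgb g).1 hg)]; exact hd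
      exact this
    · rw [h.bz_neg hirr hρ, hv, neg_neg]
  apply semireg_of_one ρ hc hu0
  rw [eq_bot_iff]
  intro d hd
  rw [Subgroup.mem_bot]
  apply hρ
  rw [map_one]
  ext v
  show ρ d v = v
  have e1 : ρ b (v + ρ b v) = v + ρ b v := by rw [map_add, h.b_invol, add_comm]
  have e2 : ρ b (v - ρ b v) = -(v - ρ b v) := by rw [map_sub, h.b_invol]; abel
  have e3 := hfix1 _ e1 d hd
  have e4 := hfix2 _ e2 d hd
  have e5 : (2 : ZMod q) • ρ d v = (2 : ZMod q) • v := by
    rw [← map_smul]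
    have : (2 : ZMod q) • v = (v + ρ b v) + (v - ρ b v) := by rw [two_smul]; abel
    rw [this, map_add, e3, e4]
  exact smul_right_injective V h2 e5

end Cfsg.Agent.H351.HT
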