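import Cfsg.Agent.H351.HalfTransConf

set_option autoImplicit false
set_option linter.style.haveILetI false

/-!
# Half-transitive linear `p`-groups with a noncyclic normal abelian subgroup: the eigenspaces
-/

namespace Cfsg.Agent.H351.HT

variable {q : ℕ} {V : Type*} [AddCommGroup V] [Module (ZMod q) V]
  {G : Type*} [Group G] (ρ : G →* (V ≃ₗ[ZMod q] V))

/-- the configuration found in `exists_config` -/
structure Conf (p : ℕ) (z b : G) : Prop where
  zc : ∀ g : G, g * z = z * g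
  zo : orderOf z = p
  bp : b ^ p = 1
  bz : b ∉ Subgroup.zpowers z
  conj : ∀ g : G, ∃ i : ℤ, g * b * g⁻¹ = b * z ^ i

variable {ρ} {p : ℕ} {z b : G}

theorem Conf.zpc (h : Conf p z b) (j : ℤ) (g : G) : g * z ^ j = z ^ j * g :=
  (Commute.zpow_right (show Commute g z from h.zc g) j).eq

theorem Conf.zpow_ne_one (h : Conf p z b) {j : ℤ} (hj : ¬ (p : ℤ) ∣ j) : z ^ j ≠ 1 := by
  intro h1
  apply hj
  rw [← h.zo]
  exact orderOf_dvd_iff_zpow_eq_one.2 h1

theorem Conf.zpow_eq_one (h : Conf p z b) {j : ℤ} (hj : (p : ℤ) ∣ j) : z ^ j = 1 := by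
  rw [← h.zo] at hj
  exact orderOf_dvd_iff_zpow_eq_one.1 hj

/-- `v` is fixed by `b z ^ j` -/
def Fx (ρ : G →* (V ≃ₗ[ZMod q] V)) (z b : G) (j : ℤ) (v : V) : Prop := ρ (b * z ^ j) v = v

theorem Conf.fx_shift (h : Conf p z b) {g : G} {c : ℤ} (hg : g * b * g⁻¹ = b * z ^ c) {j : ℤ} {v : V}
    (hv : Fx ρ z b j v) : Fx ρ z b (j + c) (ρ g v) := by
  unfold Fx at *
  rw [← LinearEquiv.mul_apply, ← map_mul]
  have : b * z ^ (j + c) * g = g * (b * z ^ j) := by
    have h1 : g * b = b * z ^ c * g := by rw [← hg]; group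
    calc b * z ^ (j + c) * g = b * z ^ c * (z ^ j * g) := by rw [add_comm, zpow_add]; group
      _ = b * z ^ c * (g * z ^ j) := by rw [h.zpc j g]
      _ = (b * z ^ c * g) * z ^ j := by group
      _ = g * (b * z ^ j) := by rw [← h1]; group
  rw [this, map_mul, LinearEquiv.mul_apply, hv]

theorem Conf.fx_congr (h : Conf p z b) {i j : ℤ} (hij : (p : ℤ) ∣ i - j) {v : V}
    (hv : Fx ρ z b i v) : Fx ρ z b j v := by
  unfold Fx at *
  have : z ^ j = z ^ i := by
    have h1 := h.zpow_eq_one hij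
    rw [zpow_sub, mul_inv_eq_one] at h1
    exact h1.symm
  rw [this]; exact hv

/-- the projections -/
noncomputable def pj (ρ : G →* (V ≃ₗ[ZMod q] V)) (p : ℕ) (z b : G) (j : ℤ) : V →ₗ[ZMod q] V :=
  ∑ k ∈ Finset.range p, (ρ ((b * z ^ j) ^ k)).toLinearMap

theorem pj_apply (j : ℤ) (v : V) : pj ρ p z b j v = ∑ k ∈ Finset.range p, ρ ((b * z ^ j) ^ k) v := by
  simp [pj, LinearMap.sum_apply]

theorem Conf.pow_bz (h : Conf p z b) (j : ℤ) (k : ℕ) : (b * z ^ j) ^ k = b ^ k * z ^ (j * k) := by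
  have : Commute b (z ^ j) := h.zpc j b
  rw [this.mul_pow, ← zpow_natCast (z ^ j) k, ← zpow_mul]

theorem fx_pow {i : ℤ} {v : V} (hv : Fx ρ z b i v) (k : ℕ) : ρ ((b * z ^ i) ^ k) v = v := by
  unfold Fx at hv
  induction k with
  | zero => simp
  | succ k ih => rw [pow_succ, map_mul, LinearEquiv.mul_apply, hv, ih]

theorem Conf.pj_self (h : Conf p z b) {i j : ℤ} (hij : (p : ℤ) ∣ i - j) {v : V}
    (hv : Fx ρ z b i v) : pj ρ p z b j v = (p : ZMod q) • v := by
  rw [pj_apply, Finset.sum_congr rfl fun k _ => fx_pow (h.fx_congr hij hv) k]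
  rw [Finset.sum_const, Finset.card_range, Nat.cast_smul_eq_nsmul]

theorem Conf.zsum (h : Conf p z b) (hirr : Irred ρ) (hρ : Function.Injective ρ) {m : ℤ}
    (hm : ¬ (p : ℤ) ∣ m) (v : V) : ∑ k ∈ Finset.range p, ρ (z ^ (m * k)) v = 0 := by
  apply fix_central ρ hirr hρ (z := z ^ m) (fun g => h.zpc m g) (h.zpow_ne_one hm)
  rw [map_sum]
  have h1 : ∀ k : ℕ, ρ (z ^ m) (ρ (z ^ (m * k)) v) = ρ (z ^ (m * (k + 1 : ℕ))) v := by
    intro k
    rw [← LinearEquiv.mul_apply, ← map_mul, ← zpow_add]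
    congr 3
    push_cast; ring
  rw [Finset.sum_congr rfl fun k _ => h1 k]
  have h2 := Finset.sum_range_succ (fun k : ℕ => ρ (z ^ (m * k)) v) p
  have h3 := Finset.sum_range_succ' (fun k : ℕ => ρ (z ^ (m * k)) v) p
  rw [h2] at h3
  have h4 : z ^ (m * (p : ℕ)) = 1 := h.zpow_eq_one (Dvd.intro_left m rfl)
  rw [h4] at h3
  simp only [Nat.cast_zero, mul_zero, zpow_zero] at h3
  exact (add_right_cancel h3).symm

theorem Conf.pj_ne (h : Conf p z b) (hirr : Irred ρ) (hρ : Function.Injective ρ) {i j : ℤ}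
    (hij : ¬ (p : ℤ) ∣ i - j) {v : V} (hv : Fx ρ z b i v) : pj ρ p z b j v = 0 := by
  rw [pj_apply]
  have h1 : ∀ k : ℕ, ρ ((b * z ^ j) ^ k) v = ρ (z ^ ((j - i) * k)) v := by
    intro k
    have : (b * z ^ j) ^ k = z ^ ((j - i) * k) * (b * z ^ i) ^ k := by
      rw [h.pow_bz, h.pow_bz, ← mul_assoc, ← h.zpc, mul_assoc, ← zpow_add]
      congr 2
      ring
    rw [this, map_mul, LinearEquiv.mul_apply, fx_pow hv]
  rw [Finset.sum_congr rfl fun k _ => h1 k]
  apply h.zsum hirr hρ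
  intro h2
  exact hij ((dvd_sub_comm).1 h2)

theorem Conf.exists_fx [Fact p.Prime] (h : Conf p z b) (hirr : Irred ρ) (hρ : Function.Injective ρ)
    (hpq : (p : ZMod q) ≠ 0) [Fact q.Prime] [Nontrivial V] :
    ∃ (j : ℤ) (v : V), v ≠ 0 ∧ Fx ρ z b j v := by
  obtain ⟨v, hv⟩ := exists_ne (0 : V)
  have hp : p.Prime := Fact.out
  have hfix : ∀ (j : ℤ) (u : V), Fx ρ z b j (pj ρ p z b j u) := by
    intro j u
    unfold Fx
    rw [pj_apply, map_sum]
    have h1 : ∀ k : ℕ, ρ (b * z ^ j) (ρ ((b * z ^ j) ^ k) u) = ρ ((b * z ^ j) ^ (k + 1)) u := by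
      intro k
      rw [← LinearEquiv.mul_apply, ← map_mul, ← pow_succ']
    rw [Finset.sum_congr rfl fun k _ => h1 k]
    have h2 := Finset.sum_range_succ (fun k : ℕ => ρ ((b * z ^ j) ^ k) u) p
    have h3 := Finset.sum_range_succ' (fun k : ℕ => ρ ((b * z ^ j) ^ k) u) p
    rw [h2] at h3
    have h4 : (b * z ^ j) ^ p = 1 := by
      rw [h.pow_bz, h.bp, one_mul]
      exact h.zpow_eq_one (Dvd.intro_left j rfl)
    rw [h4] at h3
    simp only [pow_zero] at h3
    exact (add_right_cancel h3).symm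
  by_contra hcon
  push Not at hcon
  have h0 : ∀ j : ℤ, pj ρ p z b j v = 0 := by
    intro j
    by_contra hne
    exact hcon j _ hne (hfix j v)
  have hsum : ∑ j ∈ Finset.range p, pj ρ p z b (j : ℤ) v = (p : ZMod q) • v := by
    have h1 : ∀ j : ℕ, pj ρ p z b (j : ℤ) v = ∑ k ∈ Finset.range p, ρ (b ^ k) (ρ (z ^ ((k : ℤ) * j)) v) := by
      intro j
      rw [pj_apply]
      apply Finset.sum_congr rfl
      intro k _
      rw [h.pow_bz, map_mul, LinearEquiv.mul_apply, mul_comm (j : ℤ)]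
    rw [Finset.sum_congr rfl fun j _ => h1 j, Finset.sum_comm]
    have h2 : ∀ k ∈ Finset.range p, k ≠ 0 →
        ∑ j ∈ Finset.range p, ρ (b ^ k) (ρ (z ^ ((k : ℤ) * j)) v) = 0 := by
      intro k hk hk0
      rw [← map_sum, h.zsum hirr hρ, map_zero]
      intro hd
      have := Nat.le_of_dvd (Nat.pos_of_ne_zero hk0) (Int.natCast_dvd_natCast.1 hd)
      rw [Finset.mem_range] at hk
      omega
    rw [Finset.sum_eq_single_of_mem 0 (Finset.mem_range.2 hp.pos) (fun k hk hk0 => h2 k hk hk0)]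
    simp [Nat.cast_smul_eq_nsmul]
  rw [Finset.sum_eq_zero (fun (j : ℕ) _ => h0 (j : ℤ))] at hsum
  rcases smul_eq_zero.1 hsum.symm with h5 | h5
  · exact hpq h5
  · exact hv h5

/-- `b` is not central -/
theorem Conf.exists_move [Fact p.Prime] (h : Conf p z b) (hirr : Irred ρ) (hρ : Function.Injective ρ)
    (hpq : (p : ZMod q) ≠ 0) [Fact q.Prime] [Nontrivial V] :
    ∃ (g : G) (c : ℤ), ¬ (p : ℤ) ∣ c ∧ g * b * g⁻¹ = b * z ^ c := by
  obtain ⟨j, v, hv0, hv⟩ := h.exists_fx hirr hρ hpq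
  by_contra hcon
  push Not at hcon
  have hbc : ∀ g : G, g * b = b * g := by
    intro g
    obtain ⟨c, hc⟩ := h.conj g
    have h1 : (p : ℤ) ∣ c := by
      by_contra h2
      exact hcon g c h2 hc
    rw [h.zpow_eq_one h1, mul_one] at hc
    exact mul_inv_eq_iff_eq_mul.1 hc
  apply hv0
  refine fix_central ρ hirr hρ (z := b * z ^ j) (fun g => ?_) ?_ hv
  · rw [← mul_assoc, hbc, mul_assoc, h.zpc, mul_assoc]
  · intro h1
    apply h.bz
    rw [mul_eq_one_iff_eq_inv] at h1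
    rw [h1]
    exact Subgroup.inv_mem _ (Subgroup.zpow_mem_zpowers _ _)

theorem Conf.stab_le (h : Conf p z b) [Fact p.Prime] (hp2 : p ≠ 2) (hirr : Irred ρ)
    (hρ : Function.Injective ρ) (hpq : (p : ZMod q) ≠ 0) [Fact q.Prime] {i j : ℤ}
    (hij : ¬ (p : ℤ) ∣ i - j) {v w : V} (hv : Fx ρ z b i v) (hw : Fx ρ z b j w)
    (hv0 : v ≠ 0) (hw0 : w ≠ 0) : stab ρ (v + w) ≤ stab ρ v ⊓ stab ρ w := by
  intro g hg
  rw [mem_stab, map_add] at hg
  have hp : p.Prime := Fact.out
  obtain ⟨c, hc⟩ := h.conj g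
  have hgv := h.fx_shift (ρ := ρ) hc hv
  have hgw := h.fx_shift (ρ := ρ) hc hw
  have hgv0 : ρ g v ≠ 0 := fun h1 => hv0 ((ρ g).map_eq_zero_iff.1 h1)
  have hgw0 : ρ g w ≠ 0 := fun h1 => hw0 ((ρ g).map_eq_zero_iff.1 h1)
  have hji : ¬ (p : ℤ) ∣ j - i := fun h1 => hij ((dvd_sub_comm).1 h1)
  by_cases hpc : (p : ℤ) ∣ c
  · have h1 := congrArg (pj ρ p z b i) hg
    rw [map_add, map_add, h.pj_self (by simpa using hpc) hgv, h.pj_self (by simp) hv,
      h.pj_ne hirr hρ ?_ hgw, h.pj_ne hirr hρ hji hw, add_zero, add_zero] at h1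
    · have h2 : ρ g v = v := smul_right_injective V hpq h1
      refine ⟨h2, ?_⟩
      rw [h2] at hg
      exact add_left_cancel hg
    · intro h3
      apply hji
      have : j - i = (j + c - i) - c := by ring
      rw [this]; exact dvd_sub h3 hpc
  · exfalso
    by_cases h3 : (p : ℤ) ∣ i + c - j
    · have h1 := congrArg (pj ρ p z b (j + c)) hg
      rw [map_add, map_add, h.pj_self (by simp) hgw, h.pj_ne hirr hρ ?_ hgv,
        h.pj_ne hirr hρ ?_ hv, h.pj_ne hirr hρ ?_ hw, zero_add, add_zero] at h1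
      · rcases smul_eq_zero.1 h1 with h5 | h5
        · exact hpq h5
        · exact hgw0 h5
      · intro h4; apply hpc
        have : c = -(j - (j + c)) := by ring
        rw [this]; exact (dvd_neg).2 h4
      · intro h4
        have h5 : (p : ℤ) ∣ 2 * c := by
          have : 2 * c = (i + c - j) - (i - (j + c)) := by ring
          rw [this]; exact dvd_sub h3 h4
        rcases (Nat.prime_iff_prime_int.1 hp).dvd_or_dvd h5 with h6 | h6
        · have h7 : p ∣ 2 := by exact_mod_cast h6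
          exact hp2 ((Nat.prime_dvd_prime_iff_eq hp Nat.prime_two).1 h7)
        · exact hpc h6
      · intro h4; apply hij
        have : i - j = i + c - (j + c) := by ring
        rw [this]; exact h4
    · have h1 := congrArg (pj ρ p z b (i + c)) hg
      rw [map_add, map_add, h.pj_self (by simp) hgv, h.pj_ne hirr hρ ?_ hgw,
        h.pj_ne hirr hρ ?_ hv, h.pj_ne hirr hρ ?_ hw, zero_add, add_zero] at h1
      · rcases smul_eq_zero.1 h1 with h5 | h5
        · exact hpq h5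
        · exact hgv0 h5
      · intro h4; exact h3 ((dvd_sub_comm).1 h4)
      · intro h4; apply hpc
        have : c = -(i - (i + c)) := by ring
        rw [this]; exact (dvd_neg).2 h4
      · intro h4; apply hji
        have : j - i = j + c - (i + c) := by ring
        rw [this]; exact h4

/-- For odd `p`, a half-transitive linear `p`-group with the configuration is semiregular. -/
theorem Conf.semireg_odd (h : Conf p z b) [Fact p.Prime] [Finite G] (hp2 : p ≠ 2) (hirr : Irred ρ)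
    (hρ : Function.Injective ρ) (hpq : (p : ZMod q) ≠ 0) [Fact q.Prime] [Nontrivial V]
    (hc : ∀ v w : V, v ≠ 0 → w ≠ 0 → Nat.card (stab ρ v) = Nat.card (stab ρ w)) :
    ∀ w : V, w ≠ 0 → ∀ g : G, ρ g w = w → g = 1 := by
  have heq : ∀ (i j : ℤ) (v w : V), ¬ (p : ℤ) ∣ i - j → Fx ρ z b i v → Fx ρ z b j w →
      v ≠ 0 → w ≠ 0 → stab ρ v = stab ρ w := by
    intro i j v w hij hv hw hv0 hw0
    have hle := h.stab_le hp2 hirr hρ hpq hij hv hw hv0 hw0
    have hne : v + w ≠ 0 := by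
      intro h1
      have h2 := congrArg (pj ρ p z b i) h1
      rw [map_add, h.pj_self (by simp) hv, h.pj_ne hirr hρ (fun h3 => hij ((dvd_sub_comm).1 h3)) hw,
        add_zero, map_zero] at h2
      rcases smul_eq_zero.1 h2 with h5 | h5
      · exact hpq h5
      · exact hv0 h5
    rw [← stab_eq_of_le ρ hc hne hv0 (hle.trans inf_le_left),
      ← stab_eq_of_le ρ hc hne hw0 (hle.trans inf_le_right)]
  obtain ⟨i, v, hv0, hv⟩ := h.exists_fx hirr hρ hpq
  obtain ⟨g₀, c, hpc, hgc⟩ := h.exists_move hirr hρ hpq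
  have hw := h.fx_shift (ρ := ρ) hgc hv
  have hw0 : ρ g₀ v ≠ 0 := fun h1 => hv0 ((ρ g₀).map_eq_zero_iff.1 h1)
  have hvw : stab ρ v = stab ρ (ρ g₀ v) := by
    refine heq i (i + c) _ _ ?_ hv hw hv0 hw0
    intro h1; apply hpc
    have : c = -(i - (i + c)) := by ring
    rw [this]; exact (dvd_neg).2 h1
  have hall : ∀ (j : ℤ) (u : V), Fx ρ z b j u → u ≠ 0 → stab ρ u = stab ρ v := by
    intro j u hu hu0
    by_cases hji : (p : ℤ) ∣ j - i
    · rw [hvw]
      refine heq j (i + c) _ _ ?_ hu hw hu0 hw0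
      intro h1; apply hpc
      have : c = (j - i) - (j - (i + c)) := by ring
      rw [this]; exact dvd_sub hji h1
    · exact heq j i _ _ hji hu hv hu0 hv0
  apply semireg_of_one ρ hc hv0
  let U : Submodule (ZMod q) V :=
    { carrier := {u | ∀ d ∈ stab ρ v, ρ d u = u}
      add_mem' := by intro a b ha hb d hd; rw [map_add, ha d hd, hb d hd]
      zero_mem' := by intro d _; rw [map_zero]
      smul_mem' := by intro r a ha d hd; rw [map_smul, ha d hd] }
  have hUmem : ∀ u, u ∈ U ↔ ∀ d ∈ stab ρ v, ρ d u = u := fun u => Iff.rfl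
  have hnorm : ∀ g : G, ∀ d ∈ stab ρ v, g⁻¹ * d * g ∈ stab ρ v := by
    intro g d hd
    obtain ⟨c', hc'⟩ := h.conj g
    have h1 := h.fx_shift (ρ := ρ) hc' hv
    have h2 : ρ g v ≠ 0 := fun h1 => hv0 ((ρ g).map_eq_zero_iff.1 h1)
    have h3 := hall _ _ h1 h2
    rw [← h3, mem_stab] at hd
    rw [mem_stab, map_mul, map_mul, LinearEquiv.mul_apply, LinearEquiv.mul_apply, hd, inv_apply_self]
  have hUinv : ∀ g : G, ∀ u ∈ U, ρ g u ∈ U := by
    intro g u hu d hd
    have h1 := hu _ (hnorm g d hd)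
    rw [map_mul, map_mul, LinearEquiv.mul_apply, LinearEquiv.mul_apply] at h1
    rw [← self_apply_inv ρ g (ρ d (ρ g u)), h1]
  rcases hirr U hUinv with h1 | h1
  · exfalso
    apply hv0
    have : v ∈ U := fun d hd => hd
    rw [h1] at this
    exact (Submodule.mem_bot _).1 this
  · rw [eq_bot_iff]
    intro d hd
    rw [Subgroup.mem_bot]
    apply hρ
    rw [map_one]
    ext u
    have : u ∈ U := by rw [h1]; trivial
    exact this d hd

end Cfsg.Agent.H351.HT
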