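import Cfsg.Agent.H351.HalfTransEven
import Cfsg.Agent.H351.HalfTransNT

set_option autoImplicit false
set_option linter.style.haveILetI false

/-!
# Half-transitive linear `2`-groups with two blocks, transitive on each block
-/

namespace Cfsg.Agent.H351.HT

variable {q : ℕ} {V : Type*} [AddCommGroup V] [Module (ZMod q) V]
  {G : Type*} [Group G] {ρ : G →* (V ≃ₗ[ZMod q] V)} {z b : G}

/-- fixed space of `b` -/
def blk (ρ : G →* (V ≃ₗ[ZMod q] V)) (b : G) : Submodule (ZMod q) V where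
  carrier := {v | ρ b v = v}
  add_mem' := by
    intro x y hx hy
    show ρ b (x + y) = x + y
    rw [map_add, show ρ b x = x from hx, show ρ b y = y from hy]
  zero_mem' := by show ρ b 0 = 0; rw [map_zero]
  smul_mem' := by
    intro r x hx
    show ρ b (r • x) = r • x
    rw [map_smul, show ρ b x = x from hx]

theorem mem_blk {v : V} : v ∈ blk ρ b ↔ ρ b v = v := Iff.rfl

theorem Conf.exists_two [Nontrivial V] (h : Conf 2 z b) (hirr : Irred ρ) (hρ : Function.Injective ρ)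
    (h2 : (2 : ZMod q) ≠ 0) [Fact q.Prime] :
    ∃ g₀ : G, g₀ * b = b * z * g₀ ∧ ∃ u : V, u ≠ 0 ∧ ρ b u = u := by
  have : Fact (Nat.Prime 2) := ⟨Nat.prime_two⟩
  obtain ⟨g₀, c, hc, hg⟩ := h.exists_move hirr hρ (by exact_mod_cast h2)
  have hg₀ : g₀ * b = b * z * g₀ := by
    rcases Int.even_or_odd' c with ⟨k, rfl | rfl⟩
    · exact absurd (by simp) hc
    · have h1 : z ^ (2 * k) = 1 := h.zpow_eq_one (by simp)
      rw [zpow_add, h1, one_mul, zpow_one] at hg
      exact mul_inv_eq_iff_eq_mul.1 hg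
  refine ⟨g₀, hg₀, ?_⟩
  obtain ⟨j, v, hv0, hv⟩ := h.exists_fx (ρ := ρ) hirr hρ (by exact_mod_cast h2)
  unfold Fx at hv
  rcases Int.even_or_odd' j with ⟨k, rfl | rfl⟩
  · have h1 : z ^ (2 * k) = 1 := h.zpow_eq_one (by simp)
    rw [h1, mul_one] at hv
    exact ⟨v, hv0, hv⟩
  · have h1 : z ^ (2 * k) = 1 := h.zpow_eq_one (by simp)
    rw [zpow_add, h1, one_mul, zpow_one, h.bz_neg hirr hρ] at hv
    refine ⟨ρ g₀ v, fun h3 => hv0 ((ρ g₀).map_eq_zero_iff.1 h3), ?_⟩
    rw [h.swap_pres hirr hρ g₀ hg₀, ← map_neg, hv]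

theorem Conf.card_eq (h : Conf 2 z b) (hirr : Irred ρ) (hρ : Function.Injective ρ)
    (h2 : (2 : ZMod q) ≠ 0) [Fact q.Prime] [Finite V] {g₀ : G} (hg₀ : g₀ * b = b * z * g₀) :
    Nat.card V = Nat.card (blk ρ b) ^ 2 := by
  let f : blk ρ b × blk ρ b → V := fun x => x.1 + ρ g₀ x.2
  have hsw : ∀ v : V, ρ b v = v → ρ b (ρ g₀ v) = - ρ g₀ v := by
    intro v hv
    rw [h.swap_pres hirr hρ g₀ hg₀, hv]
  have hf : Function.Bijective f := by
    constructor
    · rintro ⟨⟨x, hx⟩, ⟨y, hy⟩⟩ ⟨⟨x', hx'⟩, ⟨y', hy'⟩⟩ hxy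
      change x + ρ g₀ y = x' + ρ g₀ y' at hxy
      rw [mem_blk] at hx hy hx' hy'
      have h3 := congrArg (ρ b) hxy
      rw [map_add, map_add, hx, hx', hsw y hy, hsw y' hy'] at h3
      have h4 : (2 : ZMod q) • x = (2 : ZMod q) • x' := by
        rw [two_smul, two_smul]
        have e1 : x + x = (x + ρ g₀ y) + (x + -ρ g₀ y) := by abel
        rw [e1, hxy, h3]; abel
      have h5 : x = x' := smul_right_injective V h2 h4
      subst h5
      have h6 : y = y' := (ρ g₀).injective (add_left_cancel hxy)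
      subst h6
      rfl
    · intro v
      let t : ZMod q := 2⁻¹
      have ht : t + t = 1 := by
        have : t + t = 2 * t := by ring
        rw [this]; exact mul_inv_cancel₀ h2
      refine ⟨⟨⟨t • (v + ρ b v), ?_⟩, ⟨t • ρ g₀⁻¹ (v - ρ b v), ?_⟩⟩, ?_⟩
      · rw [mem_blk, map_smul, map_add, h.b_invol, add_comm]
      · rw [mem_blk, map_smul]
        congr 1
        have h5 : ρ b (v - ρ b v) = - (v - ρ b v) := by rw [map_sub, h.b_invol]; abel
        have h6 := h.swap_pres hirr hρ g₀ hg₀ (ρ g₀⁻¹ (v - ρ b v))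
        rw [self_apply_inv, h5] at h6
        have h7 : ρ g₀ (ρ b (ρ g₀⁻¹ (v - ρ b v))) = v - ρ b v := by
          rw [← neg_inj, ← h6]
        rw [← inv_apply_self ρ g₀ (ρ b (ρ g₀⁻¹ (v - ρ b v))), h7]
      · show t • (v + ρ b v) + ρ g₀ (t • ρ g₀⁻¹ (v - ρ b v)) = v
        rw [map_smul, self_apply_inv, ← smul_add]
        have : v + ρ b v + (v - ρ b v) = v + v := by abel
        rw [this, smul_add, ← add_smul, ht, one_smul]
  rw [← Nat.card_congr (Equiv.ofBijective f hf), Nat.card_prod, pow_two]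

theorem Conf.rank (h : Conf 2 z b) (hirr : Irred ρ) (hρ : Function.Injective ρ) (hG : IsPGroup 2 G)
    (h2 : (2 : ZMod q) ≠ 0) [hq : Fact q.Prime] [Finite V] [Finite G]
    {u : V} (hu0 : u ≠ 0) (hu : ρ b u = u)
    (htr : ∀ u' : V, ρ b u' = u' → u' ≠ 0 → ∃ g : G, ρ g u = u') :
    ∃ k : ℕ, (Nat.card (blk ρ b) = q ∧ q = 2 ^ k + 1) ∨ (Nat.card (blk ρ b) = 9 ∧ q = 3) := by
  have hq1 : 1 < q := hq.out.one_lt
  have hqodd : Odd q := by
    rcases hq.out.eq_two_or_odd' with h3 | h3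
    · exfalso; apply h2; subst h3; rfl
    · exact h3
  let N : Subgroup G := Subgroup.centralizer {b}
  have hNmem : ∀ g, g ∈ N ↔ g * b = b * g := by
    intro g
    rw [Subgroup.mem_centralizer_singleton_iff]
  have hN : ∀ g : G, ∀ u' : V, ρ b u' = u' → u' ≠ 0 → ρ g u = u' → g * b = b * g := by
    intro g u' hu' hu0' hg
    rcases h.conj_cases g with h3 | h3
    · exact h3
    · exfalso
      have h4 := h.swap_pres hirr hρ g h3 u
      rw [hu, hg, hu'] at h4
      exact hu0' (eq_zero_of_eq_neg h2 h4)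
  have h3 := card_orb_mul (ρ.comp N.subtype) u
  have h4 : {u' : V | ∃ g : N, (ρ.comp N.subtype) g u = u'} = {v | v ∈ blk ρ b ∧ v ≠ 0} := by
    ext v
    constructor
    · rintro ⟨⟨g, hg⟩, rfl⟩
      refine ⟨?_, fun h5 => hu0 ((ρ g).map_eq_zero_iff.1 h5)⟩
      show ρ b (ρ g u) = ρ g u
      rw [Conf.comm_pres g ((hNmem g).1 hg), hu]
    · rintro ⟨hv, hv0⟩
      obtain ⟨g, hg⟩ := htr v hv hv0
      exact ⟨⟨g, (hNmem g).2 (hN g v hv hv0 hg)⟩, hg⟩
  have h5 : Nat.card {v | v ∈ blk ρ b ∧ v ≠ 0} + 1 = Nat.card (blk ρ b) := by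
    have : Nat.card {v | v ∈ blk ρ b ∧ v ≠ 0} = ((blk ρ b : Set V) \ {0}).ncard := rfl
    rw [this, Set.ncard_sdiff_singleton_add_one (show (0 : V) ∈ (blk ρ b : Set V) from (blk ρ b).zero_mem)
      (Set.toFinite _)]
    rfl
  rw [h4] at h3
  obtain ⟨k, hk⟩ := IsPGroup.iff_card.1 (hG.to_subgroup N)
  rw [hk] at h3
  obtain ⟨j, -, hj⟩ := (Nat.dvd_prime_pow Nat.prime_two).1 (Dvd.intro _ h3)
  have h6 : Nat.card (blk ρ b) = q ^ Module.finrank (ZMod q) (blk ρ b) := by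
    rw [Module.natCard_eq_pow_finrank (K := ZMod q), Nat.card_zmod]
  have hr : Module.finrank (ZMod q) (blk ρ b) ≠ 0 := by
    intro h7
    rw [h7, pow_zero] at h6
    rw [h6] at h5
    rw [hj] at h5
    have : 0 < 2 ^ j := by positivity
    omega
  have h7 : q ^ Module.finrank (ZMod q) (blk ρ b) = 2 ^ j + 1 := by rw [← h6, ← h5, hj]
  rcases NT.pow_eq_two_pow_add_one hqodd hq1 hr h7 with h8 | ⟨h8, h9⟩
  · rw [h8, pow_one] at h6 h7
    exact ⟨j, Or.inl ⟨h6, h7⟩⟩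
  · rw [h9] at h6
    exact ⟨j, Or.inr ⟨by rw [h6, h8]; norm_num, h8⟩⟩

/-- The monomial case: `|V| = q ^ 2`. -/
theorem Conf.monomial (h : Conf 2 z b) (hirr : Irred ρ) (hρ : Function.Injective ρ)
    (h2 : (2 : ZMod q) ≠ 0) [hq : Fact q.Prime] [Finite V] [Finite G] [Nontrivial V]
    {g₀ : G} (hg₀ : g₀ * b = b * z * g₀)
    (hc : ∀ v w : V, v ≠ 0 → w ≠ 0 → Nat.card (stab ρ v) = Nat.card (stab ρ w))
    (hcard : Nat.card (blk ρ b) = q)
    {e₁ : V} (he0 : e₁ ≠ 0) (he : ρ b e₁ = e₁) :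
    (∀ w : V, w ≠ 0 → ∀ g : G, ρ g w = w → g = 1) ∨
      ∃ e : V ≃ₗ[ZMod q] (Fin 2 → ZMod q), ∀ f : (Fin 2 → ZMod q) ≃ₗ[ZMod q] (Fin 2 → ZMod q),
        (∃ g : G, f = e.symm.trans ((ρ g).trans e)) ↔
        ∃ a s : ZMod q, a ≠ 0 ∧ (s = 1 ∨ s = -1) ∧
          ((∀ v, f v = ![a * v 0, s * a⁻¹ * v 1]) ∨ (∀ v, f v = ![s * a⁻¹ * v 1, a * v 0])) := by
  set e₂ := ρ g₀ e₁ with he₂
  have he20 : e₂ ≠ 0 := fun h3 => he0 ((ρ g₀).map_eq_zero_iff.1 h3)
  have heb : ρ b e₂ = - e₂ := by rw [he₂, h.swap_pres hirr hρ g₀ hg₀, he]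
  have hspan : ∀ v : V, ρ b v = v → ∃ x : ZMod q, v = x • e₁ := by
    intro v hv
    let f : ZMod q → blk ρ b := fun x => ⟨x • e₁, (blk ρ b).smul_mem x he⟩
    have hf : Function.Injective f := by
      intro x y hxy
      have : x • e₁ = y • e₁ := congrArg Subtype.val hxy
      exact smul_left_injective _ he0 this
    have hf' : Function.Bijective f := by
      rw [Nat.bijective_iff_injective_and_card]
      exact ⟨hf, by rw [hcard, Nat.card_zmod]⟩
    obtain ⟨x, hx⟩ := hf'.2 ⟨v, hv⟩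
    exact ⟨x, (congrArg Subtype.val hx).symm⟩
  have hspan' : ∀ v : V, ρ b v = -v → ∃ x : ZMod q, v = x • e₂ := by
    intro v hv
    have h3 : ρ b (ρ g₀⁻¹ v) = ρ g₀⁻¹ v := by
      have h6 := h.swap_pres hirr hρ g₀ hg₀ (ρ g₀⁻¹ v)
      rw [self_apply_inv, hv] at h6
      rw [← inv_apply_self ρ g₀ (ρ b (ρ g₀⁻¹ v)), ← neg_inj.1 h6]
    obtain ⟨x, hx⟩ := hspan _ h3
    refine ⟨x, ?_⟩
    rw [he₂, ← map_smul, ← hx, self_apply_inv]
  -- equality from values on the basis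
  have hind : ∀ x y x' y' : ZMod q, x • e₁ + y • e₂ = x' • e₁ + y' • e₂ → x = x' ∧ y = y' := by
    intro x y x' y' hxy
    have h3 := congrArg (ρ b) hxy
    rw [map_add, map_add, map_smul, map_smul, map_smul, map_smul, he, heb] at h3
    have h4 : (2 : ZMod q) • (x • e₁) = (2 : ZMod q) • (x' • e₁) := by
      rw [two_smul, two_smul]
      have e1 : x • e₁ + x • e₁ = (x • e₁ + y • e₂) + (x • e₁ + y • -e₂) := by
        rw [smul_neg]; abel
      rw [e1, hxy, h3, smul_neg]; abel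
    have h5 : x • e₁ = x' • e₁ := smul_right_injective V h2 h4
    rw [h5] at hxy
    exact ⟨smul_left_injective _ he0 h5, smul_left_injective _ he20 (add_left_cancel hxy)⟩
  let L : (Fin 2 → ZMod q) →ₗ[ZMod q] V :=
    { toFun := fun x => x 0 • e₁ + x 1 • e₂
      map_add' := by intro x y; simp only [Pi.add_apply, add_smul]; abel
      map_smul' := by
        intro r x
        simp only [Pi.smul_apply, smul_eq_mul, mul_smul, smul_add, RingHom.id_apply] }
  have hL : ∀ x, L x = x 0 • e₁ + x 1 • e₂ := fun x => rfl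
  have hLbij : Function.Bijective L := by
    rw [Nat.bijective_iff_injective_and_card]
    constructor
    · intro x y hxy
      rw [hL, hL] at hxy
      obtain ⟨h3, h4⟩ := hind _ _ _ _ hxy
      ext i
      fin_cases i
      · exact h3
      · exact h4
    · rw [h.card_eq hirr hρ h2 hg₀, hcard]
      simp
  have hsplit : ∀ v : V, ∃ x y : ZMod q, v = x • e₁ + y • e₂ := by
    intro v
    obtain ⟨x, hx⟩ := hLbij.2 v
    exact ⟨x 0, x 1, hx.symm⟩
  have hext : ∀ g g' : G, ρ g e₁ = ρ g' e₁ → ρ g e₂ = ρ g' e₂ → g = g' := by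
    intro g g' h3 h4
    apply hρ
    ext v
    obtain ⟨x, y, rfl⟩ := hsplit v
    rw [map_add, map_add, map_smul, map_smul, map_smul, map_smul, h3, h4]
  have hcomm1 : ∀ g : G, g * b = b * g →
      ∃ x y : ZMod q, x ≠ 0 ∧ y ≠ 0 ∧ ρ g e₁ = x • e₁ ∧ ρ g e₂ = y • e₂ := by
    intro g hg
    obtain ⟨x, hx⟩ := hspan (ρ g e₁) (by rw [Conf.comm_pres g hg, he])
    obtain ⟨y, hy⟩ := hspan' (ρ g e₂) (by rw [Conf.comm_pres g hg, heb, map_neg])
    refine ⟨x, y, ?_, ?_, hx, hy⟩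
    · rintro rfl
      rw [zero_smul] at hx
      exact he0 ((ρ g).map_eq_zero_iff.1 hx)
    · rintro rfl
      rw [zero_smul] at hy
      exact he20 ((ρ g).map_eq_zero_iff.1 hy)
  have hcomm2 : ∀ g : G, g * b = b * z * g →
      ∃ x y : ZMod q, x ≠ 0 ∧ y ≠ 0 ∧ ρ g e₁ = x • e₂ ∧ ρ g e₂ = y • e₁ := by
    intro g hg
    obtain ⟨x, hx⟩ := hspan' (ρ g e₁) (by rw [h.swap_pres hirr hρ g hg, he])
    obtain ⟨y, hy⟩ := hspan (ρ g e₂) (by rw [h.swap_pres hirr hρ g hg, heb, map_neg, neg_neg])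
    refine ⟨x, y, ?_, ?_, hx, hy⟩
    · rintro rfl
      rw [zero_smul] at hx
      exact he0 ((ρ g).map_eq_zero_iff.1 hx)
    · rintro rfl
      rw [zero_smul] at hy
      exact he20 ((ρ g).map_eq_zero_iff.1 hy)
  by_cases hss : ∀ w : V, w ≠ 0 → ∀ g : G, ρ g w = w → g = 1
  · exact Or.inl hss
  right
  have hnt : ∀ w : V, w ≠ 0 → stab ρ w ≠ ⊥ := by
    intro w hw h3
    exact hss (semireg_of_one ρ hc hw h3)
  -- the swapping elements
  have hsw : ∀ x : ZMod q, x ≠ 0 → ∃ g : G, ρ g e₁ = x • e₂ ∧ ρ g e₂ = x⁻¹ • e₁ := by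
    intro x hx
    have hw : e₁ + x • e₂ ≠ 0 := by
      intro h3
      have := hind 1 x 0 0 (by rw [one_smul, h3]; simp)
      exact one_ne_zero this.1
    obtain ⟨⟨g, hg⟩, hg1⟩ := Subgroup.ne_bot_iff_exists_ne_one.1 (hnt _ hw)
    have hgne : g ≠ 1 := fun h3 => hg1 (Subtype.ext h3)
    rw [mem_stab, map_add, map_smul] at hg
    rcases h.conj_cases g with h3 | h3
    · exfalso
      obtain ⟨s, t, -, -, h4, h5⟩ := hcomm1 g h3
      rw [h4, h5, smul_smul] at hg
      have h6 := hind s (x * t) 1 x (by rw [hg, one_smul])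
      apply hgne
      apply hext
      · rw [h4, h6.1, map_one, one_smul]; rfl
      · have h7 : t = 1 := by
          have := h6.2
          field_simp at this
          exact this
        rw [h5, h7, map_one, one_smul]; rfl
    · obtain ⟨s, t, -, -, h4, h5⟩ := hcomm2 g h3
      rw [h4, h5, smul_smul, add_comm] at hg
      have h6 := hind (x * t) s 1 x (by rw [hg, one_smul])
      refine ⟨g, by rw [h4, h6.2], ?_⟩
      rw [h5]
      congr 1
      exact eq_inv_of_mul_eq_one_right h6.1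
  -- all stabilisers have order two
  have hcard2 : ∀ w : V, w ≠ 0 → Nat.card (stab ρ w) = 2 := by
    have hw : e₁ + e₂ ≠ 0 := by
      intro h3
      have := hind 1 1 0 0 (by rw [one_smul, one_smul, h3]; simp)
      exact one_ne_zero this.1
    have huniq : ∀ g g' : G, g ∈ stab ρ (e₁ + e₂) → g' ∈ stab ρ (e₁ + e₂) → g ≠ 1 → g' ≠ 1 → g = g' := by
      have hval : ∀ g : G, g ∈ stab ρ (e₁ + e₂) → g ≠ 1 → ρ g e₁ = e₂ ∧ ρ g e₂ = e₁ := by
        intro g hg hgne
        rw [mem_stab, map_add] at hg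
        rcases h.conj_cases g with h3 | h3
        · exfalso
          obtain ⟨s, t, -, -, h4, h5⟩ := hcomm1 g h3
          rw [h4, h5] at hg
          have h6 := hind s t 1 1 (by rw [hg, one_smul, one_smul])
          apply hgne
          apply hext
          · rw [h4, h6.1, map_one, one_smul]; rfl
          · rw [h5, h6.2, map_one, one_smul]; rfl
        · obtain ⟨s, t, -, -, h4, h5⟩ := hcomm2 g h3
          rw [h4, h5, add_comm] at hg
          have h6 := hind t s 1 1 (by rw [hg, one_smul, one_smul])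
          rw [h4, h5, h6.1, h6.2, one_smul, one_smul]
          exact ⟨rfl, rfl⟩
      intro g g' hg hg' h3 h4
      have h5 := hval g hg h3
      have h6 := hval g' hg' h4
      exact hext _ _ (by rw [h5.1, h6.1]) (by rw [h5.2, h6.2])
    have h3 : Nat.card (stab ρ (e₁ + e₂)) = 2 := by
      obtain ⟨g, hg1⟩ := Subgroup.ne_bot_iff_exists_ne_one.1 (hnt _ hw)
      rw [Nat.card_eq_two_iff]
      refine ⟨1, g, hg1.symm, ?_⟩
      rw [Set.eq_univ_iff_forall]
      intro g'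
      by_cases h4 : g' = 1
      · left; exact h4
      · right
        exact Subtype.ext (huniq _ _ g'.2 g.2 (fun h5 => h4 (Subtype.ext h5)) (fun h5 => hg1 (Subtype.ext h5)))
    intro w hw0
    rw [hc w _ hw0 hw, h3]
  have hsq : ∀ g : G, ρ g e₁ = e₁ → ∃ s : ZMod q, (s = 1 ∨ s = -1) ∧ ρ g e₂ = s • e₂ := by
    intro g hg
    have hgb : g * b = b * g := by
      rcases h.conj_cases g with h3 | h3
      · exact h3
      · exfalso
        have h4 := h.swap_pres hirr hρ g h3 e₁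
        rw [he, hg, he] at h4
        exact he0 (eq_zero_of_eq_neg h2 h4)
    obtain ⟨s, t, -, -, h4, h5⟩ := hcomm1 g hgb
    refine ⟨t, ?_, h5⟩
    have h6 : (⟨g, hg⟩ : stab ρ e₁) ^ 2 = 1 := by
      rw [← hcard2 e₁ he0]; exact pow_card_eq_one'
    have h7 : g ^ 2 = 1 := congrArg Subtype.val h6
    have h8 : ρ (g ^ 2) e₂ = (t * t) • e₂ := by
      rw [pow_two, map_mul, LinearEquiv.mul_apply, h5, map_smul, h5, smul_smul]
    rw [h7, map_one] at h8
    have h9 : t * t = 1 := by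
      have : (1 : ZMod q) • e₂ = (t * t) • e₂ := by rw [one_smul, ← h8]; rfl
      exact (smul_left_injective _ he20 this).symm
    exact mul_self_eq_one_iff.1 h9
  have hneg : ∃ g : G, ρ g e₁ = e₁ ∧ ρ g e₂ = -e₂ := by
    obtain ⟨⟨g, hg⟩, hg1⟩ := Subgroup.ne_bot_iff_exists_ne_one.1 (hnt _ he0)
    have hgne : g ≠ 1 := fun h3 => hg1 (Subtype.ext h3)
    obtain ⟨s, hs, h3⟩ := hsq g hg
    rcases hs with rfl | rfl
    · exfalso
      apply hgne
      apply hext
      · rw [map_one]; exact hg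
      · rw [h3, map_one, one_smul]; rfl
    · exact ⟨g, hg, by rw [h3, neg_smul, one_smul]⟩
  have hA1 : ∀ a s : ZMod q, a ≠ 0 → (s = 1 ∨ s = -1) →
      ∃ g : G, ρ g e₁ = a • e₂ ∧ ρ g e₂ = (s * a⁻¹) • e₁ := by
    intro a s ha hs
    obtain ⟨g, h3, h4⟩ := hsw a ha
    obtain ⟨d, h5, h6⟩ := hneg
    rcases hs with rfl | rfl
    · exact ⟨g, h3, by rw [h4, one_mul]⟩
    · refine ⟨g * d, ?_, ?_⟩
      · rw [map_mul, LinearEquiv.mul_apply, h5, h3]
      · rw [map_mul, LinearEquiv.mul_apply, h6, map_neg, h4, neg_mul, one_mul, neg_smul]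
  have hA2 : ∀ a s : ZMod q, a ≠ 0 → (s = 1 ∨ s = -1) →
      ∃ g : G, ρ g e₁ = a • e₁ ∧ ρ g e₂ = (s * a⁻¹) • e₂ := by
    intro a s ha hs
    obtain ⟨g, h3, h4⟩ := hA1 a⁻¹ s (inv_ne_zero ha) hs
    obtain ⟨k, h5, h6⟩ := hsw 1 one_ne_zero
    rw [one_smul] at h5
    rw [inv_one, one_smul] at h6
    rw [inv_inv] at h4
    rcases hs with rfl | rfl
    · refine ⟨g * k, ?_, ?_⟩
      · rw [map_mul, LinearEquiv.mul_apply, h5, h4, one_mul]
      · rw [map_mul, LinearEquiv.mul_apply, h6, h3, one_mul]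
    · -- use `d` of determinant `-1` first
      obtain ⟨d, h7, h8⟩ := hneg
      obtain ⟨g', h3', h4'⟩ := hA1 a⁻¹ 1 (inv_ne_zero ha) (Or.inl rfl)
      rw [inv_inv] at h4'
      refine ⟨g' * k * d, ?_, ?_⟩
      · rw [map_mul, map_mul, LinearEquiv.mul_apply, LinearEquiv.mul_apply, h7, h5, h4', one_mul]
      · rw [map_mul, map_mul, LinearEquiv.mul_apply, LinearEquiv.mul_apply, h8, map_neg, h6, map_neg,
          h3', neg_mul, one_mul, neg_smul]
  have hB2 : ∀ g : G, g * b = b * g → ∃ a s : ZMod q, a ≠ 0 ∧ (s = 1 ∨ s = -1) ∧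
      ρ g e₁ = a • e₁ ∧ ρ g e₂ = (s * a⁻¹) • e₂ := by
    intro g hg
    obtain ⟨x, y, hx0, hy0, hx, hy⟩ := hcomm1 g hg
    obtain ⟨d, hd1, hd2⟩ := hA2 x⁻¹ 1 (inv_ne_zero hx0) (Or.inl rfl)
    rw [inv_inv, one_mul] at hd2
    have h3 : ρ (d * g) e₁ = e₁ := by
      rw [map_mul, LinearEquiv.mul_apply, hx, map_smul, hd1, smul_smul, mul_inv_cancel₀ hx0, one_smul]
    obtain ⟨s, hs, h4⟩ := hsq _ h3
    rw [map_mul, LinearEquiv.mul_apply, hy, map_smul, hd2, smul_smul] at h4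
    have h5 : y * x = s := smul_left_injective _ he20 h4
    refine ⟨x, s, hx0, hs, hx, ?_⟩
    rw [hy, ← h5, mul_inv_cancel_right₀ hx0]
  have hB1 : ∀ g : G, g * b = b * z * g → ∃ a s : ZMod q, a ≠ 0 ∧ (s = 1 ∨ s = -1) ∧
      ρ g e₁ = a • e₂ ∧ ρ g e₂ = (s * a⁻¹) • e₁ := by
    intro g hg
    obtain ⟨x, y, hx0, hy0, hx, hy⟩ := hcomm2 g hg
    obtain ⟨d, hd1, hd2⟩ := hsw x⁻¹ (inv_ne_zero hx0)
    rw [inv_inv] at hd2
    -- `d g` maps `e₁` to `x x e₁`, `e₂` to `y x⁻¹ e₂`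
    have h3 : (d * g) * b = b * (d * g) ∨ (d * g) * b = b * z * (d * g) := h.conj_cases _
    have e1 : ρ (d * g) e₁ = (x * x) • e₁ := by
      rw [map_mul, LinearEquiv.mul_apply, hx, map_smul, hd2, smul_smul]
    have e2 : ρ (d * g) e₂ = (y * x⁻¹) • e₂ := by
      rw [map_mul, LinearEquiv.mul_apply, hy, map_smul, hd1, smul_smul]
    have h4 : (d * g) * b = b * (d * g) := by
      rcases h3 with h3 | h3
      · exact h3
      · exfalso
        have h5 := h.swap_pres hirr hρ _ h3 e₁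
        rw [he, e1, map_smul, he] at h5
        have h6 := eq_zero_of_eq_neg h2 h5
        rcases smul_eq_zero.1 h6 with h7 | h7
        · exact hx0 (mul_self_eq_zero.1 h7)
        · exact he0 h7
    obtain ⟨a, s, ha0, hs, h5, h6⟩ := hB2 _ h4
    rw [e1] at h5
    rw [e2] at h6
    have h7 : x * x = a := smul_left_injective _ he0 h5
    have h8 : y * x⁻¹ = s * a⁻¹ := smul_left_injective _ he20 h6
    refine ⟨x, s, hx0, hs, hx, ?_⟩
    rw [hy]
    congr 1
    rw [← h7, mul_inv] at h8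
    have : y = (y * x⁻¹) * x := by rw [inv_mul_cancel_right₀ hx0]
    rw [this, h8]
    field_simp
  let e : (Fin 2 → ZMod q) ≃ₗ[ZMod q] V := LinearEquiv.ofBijective L hLbij
  have hee : ∀ x, e x = x 0 • e₁ + x 1 • e₂ := fun x => rfl
  have hes : ∀ x y : ZMod q, e.symm (x • e₁ + y • e₂) = ![x, y] := by
    intro x y
    rw [LinearEquiv.symm_apply_eq, hee]
    simp
  refine ⟨e.symm, ?_⟩
  intro f
  constructor
  · rintro ⟨g, rfl⟩
    have hval : ∀ v, (e.symm.symm.trans ((ρ g).trans e.symm)) v =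
        e.symm (v 0 • ρ g e₁ + v 1 • ρ g e₂) := by
      intro v
      simp only [LinearEquiv.trans_apply, LinearEquiv.symm_symm, hee, map_add, map_smul]
    rcases h.conj_cases g with hg | hg
    · obtain ⟨a, s, ha, hs, h3, h4⟩ := hB2 g hg
      refine ⟨a, s, ha, hs, Or.inl ?_⟩
      intro v
      rw [hval, h3, h4, smul_smul, smul_smul, hes]
      congr 1
      · ring
      · congr 1; ring
    · obtain ⟨a, s, ha, hs, h3, h4⟩ := hB1 g hg
      refine ⟨a, s, ha, hs, Or.inr ?_⟩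
      intro v
      rw [hval, h3, h4, smul_smul, smul_smul, add_comm, hes]
      congr 1
      · ring
      · congr 1; ring
  · rintro ⟨a, s, ha, hs, hf | hf⟩
    · obtain ⟨g, h3, h4⟩ := hA2 a s ha hs
      refine ⟨g, ?_⟩
      apply LinearEquiv.ext
      intro v
      have hval : (e.symm.symm.trans ((ρ g).trans e.symm)) v =
          e.symm (v 0 • ρ g e₁ + v 1 • ρ g e₂) := by
        simp only [LinearEquiv.trans_apply, LinearEquiv.symm_symm, hee, map_add, map_smul]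
      rw [hval, hf, h3, h4, smul_smul, smul_smul, hes]
      congr 1
      · ring
      · congr 1; ring
    · obtain ⟨g, h3, h4⟩ := hA1 a s ha hs
      refine ⟨g, ?_⟩
      apply LinearEquiv.ext
      intro v
      have hval : (e.symm.symm.trans ((ρ g).trans e.symm)) v =
          e.symm (v 0 • ρ g e₁ + v 1 • ρ g e₂) := by
        simp only [LinearEquiv.trans_apply, LinearEquiv.symm_symm, hee, map_add, map_smul]
      rw [hval, hf, h3, h4, smul_smul, smul_smul, add_comm, hes]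
      congr 1
      · ring
      · congr 1; ring

end Cfsg.Agent.H351.HT
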